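import Cfsg.Agent.OD.Pre
import Cfsg.Agent.H6.TCTop
import Cfsg.Agent.H3.HxHT1.C
set_option autoImplicit false
set_option maxRecDepth 100000
set_option Elab.async false
set_option linter.all false
namespace CfH6.HxHT1
open CfH6
theorem p0 : C.OkL 256 2432 := C.okL_of 256 17 0 2432 (by decide) (by decide +kernel)
theorem p1 : C.OkL 2432 4480 := C.okL_of 2432 16 0 4480 (by decide) (by decide +kernel)
theorem p2 : C.OkL 4480 6528 := C.okL_of 4480 16 0 6528 (by decide) (by decide +kernel)
theorem p3 : C.OkL 6528 8576 := C.okL_of 6528 16 0 8576 (by decide) (by decide +kernel)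
theorem p4 : C.OkL 8576 10368 := C.okL_of 8576 14 0 10368 (by decide) (by decide +kernel)
theorem p5 : C.OkL 10368 12160 := C.okL_of 10368 14 0 12160 (by decide) (by decide +kernel)
theorem p6 : C.OkL 12160 13824 := C.okL_of 12160 13 0 13824 (by decide) (by decide +kernel)
theorem p7 : C.OkL 13824 15488 := C.okL_of 13824 13 0 15488 (by decide) (by decide +kernel)
theorem p8 : C.OkL 15488 17024 := C.okL_of 15488 12 0 17024 (by decide) (by decide +kernel)
theorem p9 : C.OkL 17024 18560 := C.okL_of 17024 12 0 18560 (by decide) (by decide +kernel)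
theorem p10 : C.OkL 18560 20096 := C.okL_of 18560 12 0 20096 (by decide) (by decide +kernel)
theorem p11 : C.OkL 20096 21504 := C.okL_of 20096 11 0 21504 (by decide) (by decide +kernel)
theorem p12 : C.OkL 21504 23040 := C.okL_of 21504 12 0 23040 (by decide) (by decide +kernel)
theorem p13 : C.OkL 23040 24576 := C.okL_of 23040 12 0 24576 (by decide) (by decide +kernel)
theorem p14 : C.OkL 24576 26112 := C.okL_of 24576 12 0 26112 (by decide) (by decide +kernel)
theorem p15 : C.OkL 26112 27520 := C.okL_of 26112 11 0 27520 (by decide) (by decide +kernel)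
theorem p16 : C.OkL 27520 28800 := C.okL_of 27520 10 0 28800 (by decide) (by decide +kernel)
theorem p17 : C.OkL 28800 29411 := C.okL_of 28800 4 99 29411 (by decide) (by decide +kernel)
theorem p18 : C.OkR 29411 31715 := C.okR_of 29411 18 0 31715 (by decide) (by decide +kernel)
theorem p19 : C.OkR 31715 34019 := C.okR_of 31715 18 0 34019 (by decide) (by decide +kernel)
end CfH6.HxHT1
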