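import Cfsg.Agent.OD.Pre
import Cfsg.Agent.H6.TCTop
import Cfsg.Agent.H3.HxHT1.C
set_option autoImplicit false
set_option maxRecDepth 100000
set_option Elab.async false
set_option linter.all false
namespace CfH6.HxHT1
open CfH6
theorem p20 : C.OkR 34019 36195 := C.okR_of 34019 17 0 36195 (by decide) (by decide +kernel)
theorem p21 : C.OkR 36195 38499 := C.okR_of 36195 18 0 38499 (by decide) (by decide +kernel)
theorem p22 : C.OkR 38499 40803 := C.okR_of 38499 18 0 40803 (by decide) (by decide +kernel)
theorem p23 : C.OkR 40803 43107 := C.okR_of 40803 18 0 43107 (by decide) (by decide +kernel)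
theorem p24 : C.OkR 43107 45539 := C.okR_of 43107 19 0 45539 (by decide) (by decide +kernel)
theorem p25 : C.OkR 45539 47971 := C.okR_of 45539 19 0 47971 (by decide) (by decide +kernel)
theorem p26 : C.OkR 47971 50275 := C.okR_of 47971 18 0 50275 (by decide) (by decide +kernel)
theorem p27 : C.OkR 50275 52451 := C.okR_of 50275 17 0 52451 (by decide) (by decide +kernel)
theorem p28 : C.OkR 52451 52810 := C.okR_of 52451 2 103 52810 (by decide) (by decide +kernel)
end CfH6.HxHT1
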